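import Cfsg.Agent.H883.C7.LIface

/-!
# Slot Siegel elements are commutators in the slot groups of an overgroup (helper804, task 1912)
-/

set_option autoImplicit false
set_option linter.unusedSectionVars false

namespace Cfsg.Agent.H804.C7

open QuadraticMap hiding proj
open Cfsg.Agent.LieClassical.OrthCore Cfsg.Agent.LieClassical.OrthTrans
open Cfsg.Agent.H882.Ten Cfsg.Agent.LieClassical.OrthFinite Cfsg.Agent.H883.C7
open scoped commutatorElement

section gen

variable {F : Type*} {V : Type*} [Field F] [AddCommGroup V] [Module F V] {Q : QuadraticForm F V}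

/-- Expansion in dimension 4. -/
theorem expand4 (hd : Module.finrank F V = 4) {u u' v w : V} (hyp : Hyp Q u u') (h1 : polar Q u v = 0)
    (h2 : polar Q u' v = 0) (h3 : polar Q u w = 0) (h4 : polar Q u' w = 0) (h5 : polar Q v w = 0)
    (hv : polar Q v v ≠ 0) (hw : polar Q w w ≠ 0) (p : V) :
    p = polar Q u' p • u + polar Q u p • u' + ((polar Q v v)⁻¹ * polar Q v p) • v +
      ((polar Q w w)⁻¹ * polar Q w p) • w := by
  have hli : LinearIndependent F ![u, u', v, w] := by
    rw [Fintype.linearIndependent_iff]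
    intro c hc
    rw [Fin.sum_univ_four] at hc
    have hc' : c 0 • u + c 1 • u' + c 2 • v + c 3 • w = 0 := hc
    have e1 := congrArg (polar Q u) hc'
    have e2 := congrArg (polar Q u') hc'
    have e3 := congrArg (polar Q v) hc'
    have e4 := congrArg (polar Q w) hc'
    simp only [polar_add_right, polar_smul_right, hyp.polar_left, hyp.pair, hyp.pair', hyp.polar_right, h1, h2,
      h3, h4, h5, polar_comm Q v u, polar_comm Q v u', polar_comm Q w u, polar_comm Q w u', polar_comm Q w v,
      polar_zero_right, smul_eq_mul, mul_zero, mul_one, zero_add, add_zero] at e1 e2 e3 e4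
    have e5 : c 2 = 0 := (mul_eq_zero.1 e3).resolve_right hv
    have e6 : c 3 = 0 := (mul_eq_zero.1 e4).resolve_right hw
    intro i
    fin_cases i
    · exact e2
    · exact e1
    · exact e5
    · exact e6
  have hsp := hli.span_eq_top_of_card_eq_finrank (by simp [hd])
  have hp : p ∈ Submodule.span F (Set.range ![u, u', v, w]) := by rw [hsp]; trivial
  rw [Submodule.mem_span_range_iff_exists_fun] at hp
  obtain ⟨c, hc⟩ := hp
  rw [Fin.sum_univ_four] at hc
  have hc' : c 0 • u + c 1 • u' + c 2 • v + c 3 • w = p := hc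
  have e1 := congrArg (polar Q u) hc'
  have e2 := congrArg (polar Q u') hc'
  have e3 := congrArg (polar Q v) hc'
  have e4 := congrArg (polar Q w) hc'
  simp only [polar_add_right, polar_smul_right, hyp.polar_left, hyp.pair, hyp.pair', hyp.polar_right, h1, h2,
    h3, h4, h5, polar_comm Q v u, polar_comm Q v u', polar_comm Q w u, polar_comm Q w u', polar_comm Q w v,
    smul_eq_mul, mul_zero, mul_one, zero_add, add_zero] at e1 e2 e3 e4
  rw [← e1, ← e2, ← e3, ← e4, ← hc']
  congr 2
  · congr 1
    field_simp
  · field_simp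

theorem siegel_smul_smul {u z : V} (hu : Q u = 0) (a b : F)
    (hau : Q (a • u) = 0) (hab : polar Q (a • u) (b • z) = 0) (hc : polar Q u ((a * b) • z) = 0) :
    siegel Q (a • u) (b • z) hau hab = siegel Q u ((a * b) • z) hu hc := by
  ext v
  rw [siegel_apply, siegel_apply, QuadraticMap.map_smul, QuadraticMap.map_smul, polar_smul_left, polar_smul_left,
    polar_smul_left]
  simp only [smul_eq_mul]
  module

theorem siegel_add_smul {u z : V} (hu : Q u = 0) (hz : polar Q u z = 0) (a : F)
    (hz' : polar Q u (z + a • u) = 0) : siegel Q u (z + a • u) hu hz' = siegel Q u z hu hz := by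
  have h : polar Q z u = 0 := by rw [polar_comm]; exact hz
  ext v
  rw [siegel_apply, siegel_apply, Q_add, QuadraticMap.map_smul, hu, polar_smul_right, h, polar_add_left,
    polar_smul_left]
  simp only [smul_eq_mul]
  module

/-- the commutator of an eigenelement with a Siegel element -/
theorem comm_siegel {h : V ≃ₗ[F] V} (hO : h ∈ O Q) {u z : V} (hu : Q u = 0) (hz : polar Q u z = 0) {a b : F}
    (hhu : h u = a • u) (hhz : h z = b • z) (hz' : polar Q u ((a * b - 1) • z) = 0) :
    h * siegel Q u z hu hz * h⁻¹ * (siegel Q u z hu hz)⁻¹ = siegel Q u ((a * b - 1) • z) hu hz' := by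
  have e1 : Q (h u) = 0 := by rw [mem_O.1 hO]; exact hu
  have e2 : polar Q (h u) (h z) = 0 := by rw [polar_map hO]; exact hz
  have e3 : polar Q u ((a * b) • z) = 0 := by rw [polar_smul_right, hz, smul_zero]
  have e4 : polar Q u (-z) = 0 := by rw [polar_neg_right, hz, neg_zero]
  have e5 : polar Q u ((a * b) • z + -z) = 0 := by rw [polar_add_right, e3, e4, add_zero]
  have e6 : Q (a • u) = 0 := by rw [← hhu]; exact e1
  have e7 : polar Q (a • u) (b • z) = 0 := by rw [← hhu, ← hhz]; exact e2
  rw [siegel_conj hO hu hz e1 e2, siegel_inv hu hz e4]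
  have h1 : siegel Q (h u) (h z) e1 e2 = siegel Q u ((a * b) • z) hu e3 := by
    rw [← siegel_smul_smul hu a b e6 e7 e3]
    ext v
    rw [siegel_apply, siegel_apply, hhu, hhz]
  rw [h1, siegel_mul hu e3 e4 e5]
  ext v
  rw [siegel_apply, siegel_apply]
  have : (a * b) • z + -z = (a * b - 1) • z := by module
  rw [this]

/-- products of two reflections in orthogonal vectors of the same norm are commutators -/
theorem refl_mul_refl_mem (h2 : (2 : F) ≠ 0) {x y : V} (hx : Q x ≠ 0) (hy : Q y ≠ 0) (h : Q x = Q y)
    (hxy : polar Q x y = 0) : refl Q x hx * refl Q y hy ∈ ⁅O Q, O Q⁆ := by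
  have hd : Q (y - x) ≠ 0 := by
    rw [sub_eq_add_neg, Q_add, QuadraticMap.map_neg, polar_neg_right, polar_comm, hxy, neg_zero, add_zero, h,
      ← two_mul]
    exact mul_ne_zero h2 hy
  have h1 : refl Q (y - x) hd x = y := by
    have h0 := refl_sub_apply h hd
    have h00 := LinearEquiv.congr_fun (refl_mul_self hd) y
    have h01 : refl Q (y - x) hd (refl Q (y - x) hd y) = y := h00
    rwa [h0] at h01
  have h2 : refl Q y hy = refl Q (y - x) hd * refl Q x hx * (refl Q (y - x) hd)⁻¹ := by
    have h3 : Q (refl Q (y - x) hd x) ≠ 0 := by rw [h1]; exact hy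
    rw [refl_conj (refl_mem_O hd) hx h3]
    ext v
    rw [refl_apply, refl_apply, h1]
  rw [h2]
  have h4 : refl Q x hx * (refl Q (y - x) hd * refl Q x hx * (refl Q (y - x) hd)⁻¹) =
      ⁅refl Q x hx, refl Q (y - x) hd⁆ := by
    rw [commutatorElement_def, refl_inv hx]
    group
  rw [h4]
  exact Subgroup.commutator_mem_commutator (refl_mem_O hx) (refl_mem_O hd)

end gen

variable {F : Type*} [Field F] {κ : Type*} [Fintype κ] [DecidableEq κ] {ι : Type*} [Fintype ι] [DecidableEq ι]

/-- In a field with three elements the nonzero elements are `1` and `-1`. -/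
theorem three_cases [Finite F] (h3 : Nat.card F = 3) {a b : F} (ha : a ≠ 0) (hb : b ≠ 0) : a = b ∨ a = -b := by
  classical
  have : Fintype F := Fintype.ofFinite F
  have h1 : (a * b⁻¹) ^ (Fintype.card F - 1) = 1 := FiniteField.pow_card_sub_one_eq_one _ (mul_ne_zero ha (inv_ne_zero hb))
  rw [← Nat.card_eq_fintype_card, h3] at h1
  have h2 : (a - b) * (a + b) = 0 := by
    have e : a = a * b⁻¹ * b := by rw [mul_assoc, inv_mul_cancel₀ hb, mul_one]
    have h4 : a * a = b * b := by
      calc a * a = (a * b⁻¹) ^ 2 * (b * b) := by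
            conv_lhs => rw [e]
            ring
        _ = b * b := by rw [h1, one_mul]
    linear_combination h4
  rcases mul_eq_zero.1 h2 with h | h
  · exact Or.inl (sub_eq_zero.1 h)
  · exact Or.inr (eq_neg_of_add_eq_zero_left h)

theorem siegel_mem_comm [Finite F] {q : QuadraticForm F (κ → F)} (H : Hyp7 q) (ht : 2 ≤ Fintype.card ι)
    {M : Subgroup (((ι → κ) → F) ≃ₗ[F] ((ι → κ) → F))} (hM : Over q M) (l : ι) {u z : κ → F} (hu : q u = 0)
    (hz : polar q u z = 0) :
    slE l (siegel q u z hu hz) ∈
      ⁅M ⊓ (slE (F := F) (κ := κ) l).range, M ⊓ (slE (F := F) (κ := κ) l).range⁆ := by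
  have hG := H.good ht
  have hone : u = 0 → slE l (siegel q u z hu hz) ∈
      ⁅M ⊓ (slE (F := F) (κ := κ) l).range, M ⊓ (slE (F := F) (κ := κ) l).range⁆ := by
    intro h0
    have : siegel q u z hu hz = 1 := by
      ext v : 1
      rw [siegel_apply]
      subst h0
      simp
    rw [this, map_one]
    exact Subgroup.one_mem _
  by_cases hu0 : u = 0
  · exact hone hu0
  obtain ⟨u', hyp⟩ := LieClassical.OrthTrans.exists_hyp H.nd hu hu0
  -- reduction to an element of `O q`
  have main : ∀ (h : (κ → F) ≃ₗ[F] (κ → F)), h ∈ ⁅O q, O q⁆ → h ∈ O q → ∀ a b : F, a * b - 1 ≠ 0 → h u = a • u →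
      h (LieClassical.OrthTrans.proj q u u' z) = b • LieClassical.OrthTrans.proj q u u' z →
      slE l (siegel q u z hu hz) ∈
      ⁅M ⊓ (slE (F := F) (κ := κ) l).range, M ⊓ (slE (F := F) (κ := κ) l).range⁆ := by
    intro h hc hO a b hab hhu hhz
    set z0 := LieClassical.OrthTrans.proj q u u' z with hz0
    have e0 : polar q u z0 = 0 := polar_proj_left hyp z
    have e1 : z = z0 + polar q u' z • u := by
      rw [hz0, LieClassical.OrthTrans.proj, hz]; module
    have e2 : polar q u (z0 + polar q u' z • u) = 0 := by rw [← e1]; exact hz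
    have e3 : siegel q u z hu hz = siegel q u z0 hu e0 := by
      rw [← siegel_add_smul hu e0 (polar q u' z) e2]
      ext v : 1
      rw [siegel_apply, siegel_apply, ← e1]
    set z1 := (a * b - 1)⁻¹ • z0 with hz1
    have e4 : polar q u z1 = 0 := by rw [hz1, polar_smul_right, e0, smul_zero]
    have e5 : h z1 = b • z1 := by rw [hz1, map_smul, hhz, smul_comm]
    have e6 : (a * b - 1) • z1 = z0 := by rw [hz1, smul_smul, mul_inv_cancel₀ hab, one_smul]
    have e7 : polar q u ((a * b - 1) • z1) = 0 := by rw [e6]; exact e0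
    have e8 : siegel q u z0 hu e0 = h * siegel q u z1 hu e4 * h⁻¹ * (siegel q u z1 hu e4)⁻¹ := by
      rw [comm_siegel hO hu e4 hhu e5 e7]
      ext v : 1
      rw [siegel_apply, siegel_apply, e6]
    rw [e3, e8, map_mul, map_mul, map_mul, map_inv, map_inv, ← commutatorElement_def]
    refine Subgroup.commutator_mem_commutator ?_ ?_
    · exact ⟨hM.2 _ (slE_comm_mem_E H.two hG l hc) (slE_isMono _ _), h, rfl⟩
    · exact ⟨hM.siegel_mem H.two hG l hu e4, _, rfl⟩
  have hz0u : polar q u (LieClassical.OrthTrans.proj q u u' z) = 0 := polar_proj_left hyp z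
  have hz0u' : polar q u' (LieClassical.OrthTrans.proj q u u' z) = 0 := polar_proj_right hyp z
  by_cases h5 : 5 ≤ Nat.card F
  · obtain ⟨c, hc0, hc1⟩ := exists_sq_ne h5
    obtain ⟨h, hh, hO, h1, -, h3⟩ := exists_torus hyp hc0
    exact main h hh hO (c * c) 1 (by rw [mul_one]; exact sub_ne_zero.2 hc1) h1
      (by rw [one_smul]; exact h3 _ hz0u hz0u')
  -- `|F| = 3`
  have h3 : Nat.card F = 3 := by
    have : Fintype F := Fintype.ofFinite F
    have h1 : 2 < Nat.card F ∧ Nat.card F ≠ 4 := by
      constructor
      · have hlt : 1 < Nat.card F := Finite.one_lt_card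
        rcases Nat.lt_or_ge 2 (Nat.card F) with h | h
        · exact h
        exfalso
        have h2 : Nat.card F = 2 := by omega
        apply H.two
        have := FiniteField.cast_card_eq_zero F
        rw [← Nat.card_eq_fintype_card, h2] at this
        exact_mod_cast this
      · intro h4
        apply H.two
        have := FiniteField.cast_card_eq_zero F
        rw [← Nat.card_eq_fintype_card, h4] at this
        have h5 : (2 : F) * 2 = 0 := by
          have e : ((4 : ℕ) : F) = 2 * 2 := by norm_num
          rw [← e]; exact this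
        exact mul_self_eq_zero.1 h5
    omega
  rcases Nat.lt_or_ge (Fintype.card κ) 5 with hk | hk
  · -- `|κ| = 4`
    have hk4 : Fintype.card κ = 4 := by
      have := H.three
      rcases Nat.lt_or_ge (Fintype.card κ) 4 with h | h
      · have := H.five (by omega)
        omega
      · omega
    have hfour := H.four hk4
    obtain ⟨y1, a1, a2, a3⟩ := exists_nonsing_perp H.nd
      (by rw [Module.finrank_fintype_fun_eq_card]; exact H.three) hyp
    obtain ⟨y2, b0, hb⟩ := exists_perp_ne (Q := q) ![u, u', y1]
      (by rw [Module.finrank_fintype_fun_eq_card, hk4]; norm_num)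
    have b1 : polar q u y2 = 0 := hb 0
    have b2 : polar q u' y2 = 0 := hb 1
    have b3 : polar q y1 y2 = 0 := hb 2
    have hani : ∀ y, polar q u y = 0 → polar q u' y = 0 → q y = 0 → y = 0 := by
      intro y c1 c2 c3
      obtain ⟨c, hc⟩ := hfour u y hu0 hu c3 c1
      rw [hc, polar_smul_right, hyp.pair', smul_eq_mul, mul_one] at c2
      rw [hc, c2, zero_smul]
    have b4 : q y2 ≠ 0 := fun h => b0 (hani y2 b1 b2 h)
    have heq : q y1 = q y2 := by
      rcases three_cases h3 a3 b4 with h | h
      · exact h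
      · exfalso
        have h5 : y1 + y2 = 0 := hani _ (by rw [polar_add_right, a1, b1, add_zero])
          (by rw [polar_add_right, a2, b2, add_zero]) (by rw [Q_add, b3, h]; ring)
        have h6 : y1 = -y2 := eq_neg_of_add_eq_zero_left h5
        rw [h6, polar_neg_left, polar_self'] at b3
        exact mul_ne_zero H.two b4 (neg_eq_zero.1 b3)
    have p1 : polar q y1 y1 ≠ 0 := by rw [polar_self']; exact mul_ne_zero H.two a3
    have p2 : polar q y2 y2 ≠ 0 := by rw [polar_self']; exact mul_ne_zero H.two b4
    refine main (refl q y1 a3 * refl q y2 b4) (refl_mul_refl_mem H.two a3 b4 heq b3)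
      ((O q).mul_mem (refl_mem_O a3) (refl_mem_O b4)) 1 (-1) ?_ ?_ ?_
    · intro h
      apply H.two
      linear_combination -h
    · show refl q y1 a3 (refl q y2 b4 u) = _
      rw [refl_apply b4, polar_comm q y2 u, b1, mul_zero, zero_smul, sub_zero, refl_apply a3,
        polar_comm q y1 u, a1, mul_zero, zero_smul, sub_zero, one_smul]
    · have h7 := expand4 (by rw [Module.finrank_fintype_fun_eq_card]; exact hk4) hyp a1 a2 b1 b2 b3 p1 p2
        (LieClassical.OrthTrans.proj q u u' z)
      rw [hz0u, hz0u', zero_smul, zero_smul, zero_add, zero_add] at h7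
      have r1 : refl q y1 a3 y1 = -y1 := by
        rw [refl_apply, polar_self', ← mul_assoc, mul_comm _ (2 : F), mul_assoc, inv_mul_cancel₀ a3]
        module
      have r2 : refl q y2 b4 y2 = -y2 := by
        rw [refl_apply, polar_self', ← mul_assoc, mul_comm _ (2 : F), mul_assoc, inv_mul_cancel₀ b4]
        module
      have r3 : refl q y1 a3 y2 = y2 := by
        rw [refl_apply, b3, mul_zero, zero_smul, sub_zero]
      have r4 : refl q y2 b4 y1 = y1 := by
        rw [refl_apply, polar_comm, b3, mul_zero, zero_smul, sub_zero]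
      rw [h7]
      show refl q y1 a3 (refl q y2 b4 _) = _
      rw [map_add, map_smul, map_smul, r4, r2, map_add, map_smul, map_smul, map_neg, r1, r3]
      module
  · have hGq : Good q := good_of_finite H.nd (by rw [Module.finrank_fintype_fun_eq_card]; exact hk)
    have h1 : siegel q u z hu hz ∈ ⁅E q, E q⁆ := by
      rw [hGq.E_perfect]
      exact siegel_mem_E hu hz
    have h2 : (⁅E q, E q⁆).map (slE (F := F) (κ := κ) l) ≤
        ⁅M ⊓ (slE (F := F) (κ := κ) l).range, M ⊓ (slE (F := F) (κ := κ) l).range⁆ := by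
      rw [Subgroup.map_commutator]
      refine Subgroup.commutator_mono ?_ ?_ <;>
      · rintro _ ⟨x, hx, rfl⟩
        exact ⟨hM.slE_mem H.two hG l hx, x, rfl⟩
    exact h2 ⟨_, h1, rfl⟩

end Cfsg.Agent.H804.C7
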