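import Cfsg.Agent.H883.C7.LIface

/-!
# The central part of the elements `α ⊗ 1 + ζ ⊗ ω_w` of a thin overgroup, generic fields (helper804, task 1911)
-/

set_option autoImplicit false
set_option linter.unusedSectionVars false
set_option linter.unusedSimpArgs false

namespace Cfsg.Agent.H804.C7

open QuadraticMap hiding proj
open Cfsg.Agent.LieClassical.OrthCore Cfsg.Agent.LieClassical.OrthTrans
open Cfsg.Agent.H882.Ten Cfsg.Agent.LieClassical.OrthFinite Cfsg.Agent.H883.C7

/-- In a finite field with at least seven elements there is `c ≠ 0` with `c ^ 4 ≠ 1`. -/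
theorem exists_four_ne {F : Type*} [Field F] [Finite F] (h7 : 7 ≤ Nat.card F) :
    ∃ c : F, c ≠ 0 ∧ (c * c) * (c * c) ≠ 1 := by
  classical
  have : Fintype F := Fintype.ofFinite F
  rw [Nat.card_eq_fintype_card] at h7
  by_contra hcon
  push Not at hcon
  have hp : (Polynomial.X ^ 4 - Polynomial.C (1 : F)).natDegree = 4 := Polynomial.natDegree_X_pow_sub_C
  have hp0 : (Polynomial.X ^ 4 - Polynomial.C (1 : F)) ≠ 0 := Polynomial.X_pow_sub_C_ne_zero (by norm_num) _
  have h1 : (Finset.univ.erase (0 : F)) ⊆ (Polynomial.X ^ 4 - Polynomial.C (1 : F)).roots.toFinset := by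
    intro c hc
    have hc0 : c ≠ 0 := Finset.ne_of_mem_erase hc
    rw [Multiset.mem_toFinset, Polynomial.mem_roots hp0, Polynomial.IsRoot.def]
    simp only [Polynomial.eval_sub, Polynomial.eval_pow, Polynomial.eval_X, Polynomial.eval_C]
    have := hcon c hc0
    linear_combination this
  have h2 := Finset.card_le_card h1
  rw [Finset.card_erase_of_mem (Finset.mem_univ _), Finset.card_univ] at h2
  have h3 := (Multiset.toFinset_card_le _).trans (Polynomial.card_roots' (Polynomial.X ^ 4 - Polynomial.C (1 : F)))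
  rw [hp] at h3
  omega

section gen

variable {F : Type*} {U : Type*} {W : Type*} {V : Type*} [Field F] [AddCommGroup U] [Module F U]
  [AddCommGroup W] [Module F W] [AddCommGroup V] [Module F V]
  {t : U →ₗ[F] W →ₗ[F] V} {QU : QuadraticForm F U} {QW : QuadraticForm F W} {Q : QuadraticForm F V}

/-- the commutator of `α ⊗ 1 + ζ ⊗ ω_w` with `1 ⊗ s` -/
theorem conj_isB (S : TSt t QU QW Q) {w : W} (hw : QW w = 0) {b : V ≃ₗ[F] V} {α : U ≃ₗ[F] U}
    {ζ : Module.End F U} (h : IsB t QW w b α ζ) {s : W ≃ₗ[F] W} (hs : s ∈ O QW) (hsw : polar QW (s w) w = 0)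
    (u : U) (z : W) : (rW S.ten s * b * (rW S.ten s)⁻¹ * b⁻¹) (t u z) =
      t u z + polar QW (s w) z • t (ζ (α⁻¹ u)) (s w) - polar QW w z • t (ζ (α⁻¹ u)) w := by
  have hsi : ∀ y, s (s⁻¹ y) = y := fun y => LinearEquiv.apply_symm_apply s y
  have hαi : ∀ y, α (α⁻¹ y) = y := fun y => LinearEquiv.apply_symm_apply α y
  have hHi : ∀ u z, (rW S.ten s)⁻¹ (t u z) = t u (s⁻¹ z) := fun u z => by rw [← map_inv, rW_apply]
  have hpol : ∀ z, polar QW w (s⁻¹ z) = polar QW (s w) z := by
    intro z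
    have h1 := polar_map hs w (s⁻¹ z)
    rw [hsi] at h1
    exact h1.symm
  have hi := isB_inv S hw h u z
  show rW S.ten s (b ((rW S.ten s)⁻¹ (b⁻¹ (t u z)))) = _
  rw [hi]
  simp only [LinearMap.neg_apply, Module.End.mul_apply, LinearEquiv.coe_coe, map_neg, LinearMap.smul_apply,
    map_add, map_smul, hHi, smul_neg]
  rw [h, h, hpol, hpol, hsw, zero_smul, add_zero, hαi, hαi]
  simp only [map_add, map_smul, map_neg, rW_apply, hsi, LinearMap.neg_apply, smul_neg]
  abel

/-- the central part vanishes, in dimension at least five -/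
theorem zeta_eq_zero (S : TSt t QU QW Q) {X : Subgroup (V ≃ₗ[F] V)} {w w' y : W} (hyp : Hyp QW w w')
    (hy : QW y = 0) (hyw : polar QW y w = 0) (hyw' : polar QW y w' = 0)
    (hZ : ∀ κ, InZ t QW X y κ → κ = 0)
    (hX : ∀ (x : W) (hx : polar QW y x = 0), rW S.ten (siegel QW y x hy hx) ∈ X) {b : V ≃ₗ[F] V}
    (hb : b ∈ X) {α : U ≃ₗ[F] U} {ζ : Module.End F U} (h : IsB t QW w b α ζ) : ζ = 0 := by
  have hnw' : polar QW y (-w') = 0 := by rw [polar_neg_right, hyw', neg_zero]
  have hwy : polar QW w y = 0 := by rw [polar_comm]; exact hyw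
  set s1 := siegel QW y w' hy hyw' with hs1
  set s2 := siegel QW y (-w') hy hnw' with hs2
  have e1 : s1 w = w - y := by
    rw [hs1, siegel_apply, hyw, hyp.pair', hyp.right]
    module
  have e2 : s2 w = w + y := by
    rw [hs2, siegel_apply, hyw, polar_neg_left, hyp.pair', QuadraticMap.map_neg, hyp.right]
    module
  have p1 : polar QW (s1 w) w = 0 := by
    rw [e1, polar_sub_left, hyp.polar_left, hyw, sub_zero]
  have p2 : polar QW (s2 w) w = 0 := by
    rw [e2, polar_add_left, hyp.polar_left, hyw, add_zero]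
  have c1 := conj_isB S hyp.left h (siegel_mem_O hy hyw') p1
  have c2 := conj_isB S hyp.left h (siegel_mem_O hy hnw') p2
  set g1 := rW S.ten s1 * b * (rW S.ten s1)⁻¹ * b⁻¹ with hg1
  set g2 := rW S.ten s2 * b * (rW S.ten s2)⁻¹ * b⁻¹ with hg2
  have m1 : g1 ∈ X := X.mul_mem (X.mul_mem (X.mul_mem (hX _ _) hb) (X.inv_mem (hX _ _))) (X.inv_mem hb)
  have m2 : g2 ∈ X := X.mul_mem (X.mul_mem (X.mul_mem (hX _ _) hb) (X.inv_mem (hX _ _))) (X.inv_mem hb)
  rw [← hs1, e1] at c1
  rw [← hs2, e2] at c2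
  have hyy : polar QW y y = 0 := polar_self_of_sing hy
  have key : InZ t QW X y ((2 : F) • (ζ * ((α⁻¹ : U ≃ₗ[F] U) : Module.End F U))) := by
    refine ⟨g1 * g2, X.mul_mem m1 m2, fun u z => ?_⟩
    rw [LinearEquiv.mul_apply, c2, map_sub, map_add, map_smul, map_smul, c1, c1, c1]
    simp only [polar_sub_left, polar_add_left, polar_sub_right, polar_add_right, hyp.polar_left, hyw, hwy, hyy,
      LinearMap.smul_apply, Module.End.mul_apply, LinearEquiv.coe_coe, map_sub, map_add, map_smul]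
    module
  have h2 := (smul_eq_zero.1 (hZ _ key)).resolve_left S.two
  have hαi' : ∀ y, α⁻¹ (α y) = y := fun y => LinearEquiv.symm_apply_apply α y
  refine LinearMap.ext fun u => ?_
  have h5 := LinearMap.congr_fun h2 (α u)
  rw [Module.End.mul_apply, LinearEquiv.coe_coe, hαi'] at h5
  exact h5

end gen

variable {F : Type*} [Field F] {κ : Type*} [Fintype κ] [DecidableEq κ] {ι : Type*} [Fintype ι] [DecidableEq ι]

theorem zp_gen [Finite F] {q : QuadraticForm F (κ → F)} (H : Hyp7 q)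
    (hk : 7 ≤ Nat.card F ∨ 5 ≤ Fintype.card κ) (ht : 2 ≤ Fintype.card ι)
    {M : Subgroup (((ι → κ) → F) ≃ₗ[F] ((ι → κ) → F))} (hM : Over q M) (hT : Thin q M) : ZP q M := by
  intro j w hw0 hw b hb α ζ _ hB
  have hG := H.good ht
  have S := tst (ι := ι) H.two H.nd j
  obtain ⟨w', hyp⟩ := LieClassical.OrthTrans.exists_hyp H.nd hw hw0
  rcases hk with h7 | hk
  · obtain ⟨a, ha0, ha⟩ := exists_four_ne h7
    obtain ⟨h, hh, hO, h1, -, -⟩ := exists_torus hyp ha0
    have hm : rW S.ten h ∈ M := by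
      have := hM.2 _ (slE_comm_mem_E H.two hG j hh) (slE_isMono _ _)
      rwa [slE_eq_rW] at this
    exact zeta_torus S hw (fun δ hδ => hT.inZ H.two H.nd j hw hw0 hδ) hb hB hm hO ha h1
  · have hGq : Good q := good_of_finite H.nd (by rw [Module.finrank_fintype_fun_eq_card]; exact hk)
    obtain ⟨y, y', hyp2, q1, q2, q3, q4⟩ := hGq.exists_hyp2 hyp
    exact zeta_eq_zero S hyp hyp2.left (by rw [polar_comm]; exact q1) (by rw [polar_comm]; exact q3)
      (fun δ hδ => hT.inZ H.two H.nd j hyp2.left hyp2.left_ne hδ)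
      (fun x hx => by
        have := hM.siegel_mem H.two hG j hyp2.left hx
        rwa [slE_eq_rW] at this) hb hB

end Cfsg.Agent.H804.C7
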